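import Mathlib
import Cfsg.Agent.Lib.Helper94.OMG.Defs
import Cfsg.Agent.Lib.Helper53.OElm.MinusQE
import Cfsg.Agent.Lib.Helper39.OElm.ExistME
import Cfsg.Agent.Lib.Helper34.OTSP.Split
import Cfsg.Agent.Lib.Helper34.OTSP.DimI
import Cfsg.Agent.Lib.Helper1.OElp.SumE
import Cfsg.Agent.Lib.Helper67.OTSP.TypeW

/-!
# OMG (S2415): package [MIXA]

An isometry `x` of odd prime order `r ∣ q² + 1` of the minus form whose fixed space is
nondegenerate of plus type of dimension `2k - 2` and whose moved space is irreducible.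
-/

set_option autoImplicit false
open scoped Matrix MatrixGroups

namespace Cfsg.Agent.Lib.Helper27.OMG

open Cfsg.Agent.Lib.Helper94.OMG Cfsg.Agent.Lib.Helper64.OParM Cfsg.Agent.Lib.Helper23.OHyp
open Cfsg.Agent.Lib.Helper99.OTSP

universe u

/-- `q² + 1` has an odd prime factor (`q ≥ 2`). -/
theorem exists_odd_prime_dvd_sq_add_one (q : ℕ) (hq : 2 ≤ q) :
    ∃ r : ℕ, r.Prime ∧ r ≠ 2 ∧ r ∣ q ^ 2 + 1 := by
  rcases Nat.eq_two_pow_or_exists_odd_prime_and_dvd (q ^ 2 + 1) with ⟨j, hj⟩ | ⟨p, hp, hpd, hodd⟩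
  · exfalso
    have hmod : (q ^ 2 + 1) % 4 ≠ 0 := by
      have h4 : q % 4 < 4 := Nat.mod_lt _ (by norm_num)
      rw [Nat.add_mod, Nat.pow_mod]
      interval_cases h : q % 4 <;> norm_num
    have hge : 5 ≤ q ^ 2 + 1 := by nlinarith
    have hj2 : 2 ≤ j := by
      by_contra hlt
      have : j ≤ 1 := by omega
      have h2 : (2 : ℕ) ^ j ≤ 2 ^ 1 := Nat.pow_le_pow_right (by norm_num) this
      omega
    apply hmod
    rw [hj]
    obtain ⟨t, rfl⟩ : ∃ t, j = 2 + t := ⟨j - 2, by omega⟩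
    rw [pow_add]
    norm_num
  · refine ⟨p, hp, ?_, hpd⟩
    rintro rfl
    exact absurd hodd (by decide)

/-- the multiplicative order of `q` modulo an odd prime divisor of `q² + 1` is `4`. -/
theorem ordI_eq_four (q r : ℕ) (hr : r.Prime) (hr2 : r ≠ 2) (hd : r ∣ q ^ 2 + 1) :
    ordI q r = 4 := by
  have : Fact r.Prime := ⟨hr⟩
  have : Fact (2 < r) := ⟨lt_of_le_of_ne hr.two_le (Ne.symm hr2)⟩
  have : Fact (Nat.Prime 2) := ⟨Nat.prime_two⟩
  have h0 : ((q ^ 2 + 1 : ℕ) : ZMod r) = 0 := (ZMod.natCast_eq_zero_iff (q ^ 2 + 1) r).mpr hd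
  have h1 : ((q : ℕ) : ZMod r) ^ 2 = -1 := by
    push_cast at h0
    linear_combination h0
  unfold ordI
  have h4 : orderOf ((q : ℕ) : ZMod r) = 2 ^ (1 + 1) := by
    apply orderOf_eq_prime_pow
    · rw [pow_one, h1]
      exact ZMod.neg_one_ne_one
    · have : ((q : ℕ) : ZMod r) ^ 2 ^ (1 + 1) = (((q : ℕ) : ZMod r) ^ 2) ^ 2 := by
        rw [← pow_mul]; norm_num
      rw [this, h1]; norm_num
  rw [h4]; norm_num

/-- **[MIXA]** -/
theorem pkgMixA : PkgMixA.{u} := by
  intro F _ _ k a b hab hk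
  classical
  have hq : 2 ≤ Fintype.card F := by
    have := Fintype.one_lt_card (α := F)
    omega
  obtain ⟨r, hr, hr2, hrd⟩ := exists_odd_prime_dvd_sq_add_one (Fintype.card F) hq
  have hndvd : ¬ r ∣ Fintype.card F := by
    intro h
    have h1 : r ∣ Fintype.card F ^ 2 := dvd_pow h (by norm_num)
    have h2 : r ∣ 1 := (Nat.dvd_add_right h1).mp hrd
    exact hr.one_lt.ne' (Nat.dvd_one.mp h2)
  have hord : ordI (Fintype.card F) r = 4 := ordI_eq_four _ r hr hr2 hrd
  have hMQ := Cfsg.Agent.Lib.Helper53.OElm.pkgMinusQE F k a b hab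
  obtain ⟨x, hx, hxo, hxfix⟩ := Cfsg.Agent.Lib.Helper39.OElm.pkgExistME F k r a b hab hr hr2 hndvd
    (by rw [hord]; decide) 1 le_rfl (by rw [hord]; omega) (fun _ => odd_one)
  rw [hord] at hxfix
  have hxr : x ^ r = 1 := by rw [← hxo]; exact pow_orderOf_eq_one x
  have hstd : StdQ (QM k a b) r (x : Matrix (MI k) (MI k) F) :=
    { nondeg := hMQ.1
      prime := hr
      ne_two := hr2
      ndvd := hndvd
      pow := by
        rw [← Units.val_pow_eq_pow_val, hxr]; rfl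
      isom := fun v => hx v v }
  obtain ⟨hperp, hcompl, hinvm, hndf, hndm, -⟩ :=
    Cfsg.Agent.Lib.Helper34.OTSP.pkgSplit F (MI k) (QM k a b) r _ hstd
  have hcard : Module.finrank F (MI k → F) = 2 * k + 2 := by
    rw [Module.finrank_fintype_fun_eq_card]
    simp only [Fintype.card_sum, Fintype.card_fin]; ring
  have hsum := Submodule.finrank_add_eq_of_isCompl hcompl
  rw [hcard] at hsum
  have hmov : Module.finrank F (movSp (x : Matrix (MI k) (MI k) F)) = 4 := by omega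
  have hfix : Module.finrank F (fixSp (x : Matrix (MI k) (MI k) F)) = 2 * k - 2 := by omega
  -- the moved space is not of plus type
  have hnpm : ¬ Plus (QM k a b) (movSp (x : Matrix (MI k) (MI k) F)) := by
    intro hp
    have := (Cfsg.Agent.Lib.Helper67.OTSP.pkgTypeW F (MI k) (QM k a b) r _ hstd
      (by rw [hord]; decide) _ le_rfl hinvm hndm).mp hp
    rw [hmov, hord] at this
    exact absurd this (by decide)
  -- hence the fixed space is
  have hpf : Plus (QM k a b) (fixSp (x : Matrix (MI k) (MI k) F)) := by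
    by_contra hnf
    obtain ⟨-, -, hiff⟩ := Cfsg.Agent.Lib.Helper1.OElp.pkgSumE F (MI k) (QM k a b) hMQ.1
      _ _ hndf hndm hperp
    have h1 := hiff (by rw [hfix]; exact ⟨k - 1, by omega⟩) (by rw [hmov]; decide)
    rw [hcompl.sup_eq_top] at h1
    exact hMQ.2 (h1.mpr ⟨fun h => absurd h hnf, fun h => absurd h hnpm⟩)
  refine ⟨r, ⟨x, hx⟩, hr, hr2, hrd, Subtype.ext hxr, hfix, hndf, hpf, hperp, hcompl, ?_⟩
  intro v hv hv0 w hw
  -- the span of the orbit of `v`
  have hpowmat : ∀ j : ℕ, matM ((⟨x, hx⟩ : ↥(GM k F a b)) ^ j) =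
      (x : Matrix (MI k) (MI k) F) ^ j := by
    intro j
    show (((⟨x, hx⟩ : ↥(GM k F a b)) ^ j : ↥(GM k F a b)) : GL (MI k) F).val = _
    rw [Subgroup.coe_pow, Units.val_pow_eq_pow_val]
  set L : Submodule F (MI k → F) := Submodule.span F
    (Set.range fun j : ℕ => matM ((⟨x, hx⟩ : ↥(GM k F a b)) ^ j) *ᵥ v) with hL
  have hmem : ∀ j : ℕ, matM ((⟨x, hx⟩ : ↥(GM k F a b)) ^ j) *ᵥ v ∈
      movSp (x : Matrix (MI k) (MI k) F) := by
    intro j
    induction j with
    | zero => rw [hpowmat, pow_zero, Matrix.one_mulVec]; exact hv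
    | succ j ih =>
      rw [hpowmat, pow_succ', ← Matrix.mulVec_mulVec, ← hpowmat]
      have := hinvm (Submodule.mem_map_of_mem ih)
      rwa [Matrix.toLin'_apply] at this
  have hLle : L ≤ movSp (x : Matrix (MI k) (MI k) F) := by
    rw [hL]
    apply Submodule.span_le.mpr
    rintro _ ⟨j, rfl⟩
    exact hmem j
  have hLinv : Inv (x : Matrix (MI k) (MI k) F) L := by
    show L.map (Matrix.toLin' (x : Matrix (MI k) (MI k) F)) ≤ L
    rw [hL, Submodule.map_span]
    apply Submodule.span_le.mpr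
    rintro _ ⟨_, ⟨j, rfl⟩, rfl⟩
    apply Submodule.subset_span
    refine ⟨j + 1, ?_⟩
    show matM ((⟨x, hx⟩ : ↥(GM k F a b)) ^ (j + 1)) *ᵥ v = _
    rw [hpowmat, pow_succ', ← Matrix.mulVec_mulVec, ← hpowmat, Matrix.toLin'_apply]
  have hdvd := Cfsg.Agent.Lib.Helper34.OTSP.pkgDimI F (MI k) (QM k a b) r _ hstd L hLle hLinv
  rw [hord] at hdvd
  have hvL : v ∈ L := by
    rw [hL]
    apply Submodule.subset_span
    refine ⟨0, ?_⟩
    show matM ((⟨x, hx⟩ : ↥(GM k F a b)) ^ 0) *ᵥ v = v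
    rw [hpowmat, pow_zero, Matrix.one_mulVec]
  have hLpos : 0 < Module.finrank F L := by
    rw [Module.finrank_pos_iff_exists_ne_zero]
    exact ⟨⟨v, hvL⟩, fun h => hv0 (congrArg Subtype.val h)⟩
  have hLle4 : Module.finrank F L ≤ 4 := by
    rw [← hmov]; exact Submodule.finrank_mono hLle
  have hL4 : Module.finrank F L = Module.finrank F (movSp (x : Matrix (MI k) (MI k) F)) := by
    rw [hmov]
    obtain ⟨c, hc⟩ := hdvd
    omega
  have hLeq : L = movSp (x : Matrix (MI k) (MI k) F) :=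
    Submodule.eq_of_le_of_finrank_eq hLle hL4
  rw [hLeq]
  exact hw

end Cfsg.Agent.Lib.Helper27.OMG
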